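/-
Sakuma's 6-transposition theorem for Majorana involutions: basic facts on a Majorana pair (helper18).
-/
import Mathlib
import Cfsg.Prelude.Def_AxialAlgebras
import Cfsg.Agent.Lib.Majorana.Commuting

set_option autoImplicit false

namespace Cfsg.Agent.Lib.Sakuma

open Cfsg Cfsg.Axial Cfsg.Agent.Lib.Majorana

variable {V : Type*} [AddCommGroup V] [Module ℝ V]
variable {mul : V →ₗ[ℝ] V →ₗ[ℝ] V} {B : LinearMap.BilinForm ℝ V}

/-- Full decomposition with respect to a Majorana pair. -/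
theorem decomp4 {τ : V ≃ₗ[ℝ] V} {e : V} (h : IsMajoranaPair mul B τ e) (x : V) :
    ∃ (c : ℝ) (x0 x4 xb : V), x = c • e + x0 + x4 + xb ∧ mul e x0 = 0 ∧ mul e x4 = (1 / 4 : ℝ) • x4 ∧
      mul e xb = (1 / 32 : ℝ) • xb ∧ τ (c • e + x0 + x4) = c • e + x0 + x4 ∧ τ xb = -xb := by
  obtain ⟨h1, h2, ⟨⟨h3, h4, h5, h6⟩, h7⟩, h8, h9⟩ := h
  have hmem : x ∈ eigenSum mul e majoranaSpectrum := by
    rw [h5]
    exact Submodule.mem_top
  rw [eigenSum_four] at hmem
  obtain ⟨p, hp, q, hq, rfl⟩ := Submodule.mem_sup.mp hmem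
  obtain ⟨x0, hx0, q', hq', rfl⟩ := Submodule.mem_sup.mp hq
  obtain ⟨x4, hx4, xb, hxb, rfl⟩ := Submodule.mem_sup.mp hq'
  have hp0 := hp
  rw [h7] at hp
  obtain ⟨c, rfl⟩ := Submodule.mem_span_singleton.mp hp
  have hw : c • e + x0 + x4 ∈ eigenSum mul e {1, 0, 1 / 4} := by
    rw [eigenSum_three, add_assoc]
    exact Submodule.add_mem_sup hp0 (Submodule.add_mem_sup hx0 hx4)
  refine ⟨c, x0, x4, xb, by abel, ?_, mem_eigen.mp hx4, mem_eigen.mp hxb, h8 _ hw, h9 _ hxb⟩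
  have := mem_eigen.mp hx0
  simpa using this

theorem axis_idem {τ : V ≃ₗ[ℝ] V} {e : V} (h : IsMajoranaPair mul B τ e) : mul e e = e :=
  h.2.2.1.1.2.1

theorem fix_axis {τ : V ≃ₗ[ℝ] V} {e : V} (h : IsMajoranaPair mul B τ e) : τ e = e := by
  have h8 := h.2.2.2.1
  apply h8
  rw [eigenSum_three]
  refine Submodule.mem_sup_left (mem_eigen.mpr ?_)
  rw [axis_idem h, one_smul]

/-- `x - τ x` is a `1/32`-eigenvector. -/
theorem mul_refl {τ : V ≃ₗ[ℝ] V} {e : V} (h : IsMajoranaPair mul B τ e) (x : V) :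
    mul e x - mul e (τ x) = (1 / 32 : ℝ) • (x - τ x) := by
  obtain ⟨c, x0, x4, xb, hx, h0, h4, hb, hf, hn⟩ := decomp4 h x
  have e1 : τ x = c • e + x0 + x4 - xb := by
    rw [hx, map_add, hf, hn]
    abel
  rw [e1, hx]
  simp only [map_add, map_sub]
  rw [hb]
  module

theorem tau_invol {τ : V ≃ₗ[ℝ] V} {e : V} (h : IsMajoranaPair mul B τ e) (x : V) : τ (τ x) = x := by
  obtain ⟨c, x0, x4, xb, hx, h0, h4, hb, hf, hn⟩ := decomp4 h x
  have e1 : τ x = c • e + x0 + x4 - xb := by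
    rw [hx, map_add, hf, hn]
    abel
  rw [e1, map_sub, hf, hn, hx]
  abel

/-- The axis determines the involution. -/
theorem tau_unique {τ τ' : V ≃ₗ[ℝ] V} {e : V} (h : IsMajoranaPair mul B τ e) (h' : IsMajoranaPair mul B τ' e) :
    τ = τ' := by
  ext x
  obtain ⟨c, x0, x4, xb, hx, h0, h4, hb, hf, hn⟩ := decomp4 h x
  have h8 := h'.2.2.2.1
  have h9 := h'.2.2.2.2
  have hw : c • e + x0 + x4 ∈ eigenSum mul e {1, 0, 1 / 4} := by
    rw [eigenSum_three, add_assoc]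
    refine Submodule.add_mem_sup ?_ (Submodule.add_mem_sup ?_ ?_)
    · refine mem_eigen.mpr ?_
      rw [map_smul, axis_idem h, one_smul]
    · exact mem_eigen.mpr (by rw [h0, zero_smul])
    · exact mem_eigen.mpr h4
  have hwb : xb ∈ eigen mul e (1 / 32) := mem_eigen.mpr hb
  have e1 : τ' (c • e + x0 + x4) = c • e + x0 + x4 := h8 _ hw
  have e2 : τ' xb = -xb := h9 _ hwb
  rw [hx, map_add τ (c • e + x0 + x4) xb, map_add τ' (c • e + x0 + x4) xb, hf, hn, e1, e2]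

/-- Transport of a Majorana pair by an automorphism. -/
theorem conj_pair {τ φ : V ≃ₗ[ℝ] V} {e : V} (h : IsMajoranaPair mul B τ e)
    (hφ : ∀ u v : V, φ (mul u v) = mul (φ u) (φ v)) (hB : ∀ u v : V, B (φ u) (φ v) = B u v) :
    IsMajoranaPair mul B (φ * τ * φ⁻¹) (φ e) := by
  obtain ⟨h1, h2, ⟨⟨h3, h4, h5, h6⟩, h7⟩, h8, h9⟩ := h
  have hs : ∀ v, (φ * τ * φ⁻¹) (φ v) = φ (τ v) := fun v => by
    show φ (τ (φ⁻¹ (φ v))) = φ (τ v)
    congr 2
    exact φ.symm_apply_apply v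
  have hsurj : ∀ v, ∃ w, φ w = v := fun v => φ.surjective v
  refine ⟨?_, ?_, ⟨⟨?_, ?_, ?_, ?_⟩, ?_⟩, ?_, ?_⟩
  · intro u v
    obtain ⟨u', rfl⟩ := hsurj u
    obtain ⟨v', rfl⟩ := hsurj v
    rw [← hφ, hs, hs, hs, h1, hφ]
  · intro u v
    obtain ⟨u', rfl⟩ := hsurj u
    obtain ⟨v', rfl⟩ := hsurj v
    rw [hs, hs, hB, hB, h2]
  · intro h0
    apply h3
    apply φ.injective
    rw [h0, map_zero]
  · rw [← hφ, h4]
  · rw [eigenSum_map φ hφ, h5, Submodule.map_top, LinearEquiv.range]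
  · intro c hc1 d hd u hu v hv
    rw [eigen_map φ hφ] at hu hv
    obtain ⟨u', hu', rfl⟩ := Submodule.mem_map.mp hu
    obtain ⟨v', hv', rfl⟩ := Submodule.mem_map.mp hv
    rw [eigenSum_map φ hφ]
    show mul (φ u') (φ v') ∈ _
    rw [← hφ]
    exact Submodule.mem_map_of_mem (h6 c hc1 d hd u' hu' v' hv')
  · rw [eigen_map φ hφ, h7, Submodule.map_span, Set.image_singleton]
    rfl
  · intro v hv
    rw [eigenSum_map φ hφ] at hv
    obtain ⟨v', hv', rfl⟩ := Submodule.mem_map.mp hv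
    show (φ * τ * φ⁻¹) (φ v') = φ v'
    rw [hs]
    congr 1
    exact h8 v' hv'
  · intro v hv
    rw [eigen_map φ hφ] at hv
    obtain ⟨v', hv', rfl⟩ := Submodule.mem_map.mp hv
    show (φ * τ * φ⁻¹) (φ v') = -φ v'
    rw [hs]
    have : τ v' = -v' := h9 v' hv'
    rw [this, map_neg]

section Fusion

variable {τ : V ≃ₗ[ℝ] V} {e : V}

theorem fus00 (h : IsMajoranaPair mul B τ e) {x y : V} (hx : mul e x = 0) (hy : mul e y = 0) :
    mul e (mul x y) = 0 := by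
  obtain ⟨h1, h2, ⟨⟨h3, h4, h5, h6⟩, h7⟩, h8, h9⟩ := h
  have S0 : (0 : ℝ) ∈ majoranaSpectrum := by simp [majoranaSpectrum]
  have mx : x ∈ eigen mul e 0 := mem_eigen.mpr (by rw [hx, zero_smul])
  have my : y ∈ eigen mul e 0 := mem_eigen.mpr (by rw [hy, zero_smul])
  have f := h6 0 S0 0 S0 x mx y my
  rw [law_00, eigenSum_single, mem_eigen, zero_smul] at f
  exact f

theorem fus04 (h : IsMajoranaPair mul B τ e) {x y : V} (hx : mul e x = 0) (hy : mul e y = (1 / 4 : ℝ) • y) :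
    mul e (mul x y) = (1 / 4 : ℝ) • mul x y := by
  obtain ⟨h1, h2, ⟨⟨h3, h4, h5, h6⟩, h7⟩, h8, h9⟩ := h
  have S0 : (0 : ℝ) ∈ majoranaSpectrum := by simp [majoranaSpectrum]
  have S4 : (1 / 4 : ℝ) ∈ majoranaSpectrum := by simp [majoranaSpectrum]
  have mx : x ∈ eigen mul e 0 := mem_eigen.mpr (by rw [hx, zero_smul])
  have my : y ∈ eigen mul e (1 / 4) := mem_eigen.mpr hy
  have f := h6 0 S0 (1 / 4) S4 x mx y my
  rw [law_0q, eigenSum_single, mem_eigen] at f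
  exact f

theorem ip_axis0 (hV : IsMajoranaAmbient mul B) (h : IsMajoranaPair mul B τ e) {x : V} (hx : mul e x = 0) :
    B e x = 0 := by
  have := hV.2.2.2.1 e e x
  rw [axis_idem h, hx, map_zero] at this
  exact this.symm

theorem ip_axis4 (hV : IsMajoranaAmbient mul B) (h : IsMajoranaPair mul B τ e) {x : V}
    (hx : mul e x = (1 / 4 : ℝ) • x) : B e x = 0 := by
  have := hV.2.2.2.1 e e x
  rw [axis_idem h, hx, map_smul] at this
  have h10 : B e x = (1 / 4 : ℝ) * B e x := by simpa using this.symm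
  linarith

theorem fus44 (hV : IsMajoranaAmbient mul B) (h : IsMajoranaPair mul B τ e) (hn : B e e = 1) {x : V}
    (hx : mul e x = (1 / 4 : ℝ) • x) :
    mul e (mul x x) = ((1 / 4 : ℝ) * B x x) • e := by
  have hee := axis_idem h
  have hfrob := hV.2.2.2.1
  have hsym := hV.2.1
  obtain ⟨h1, h2, ⟨⟨h3, h4, h5, h6⟩, h7⟩, h8, h9⟩ := id h
  have S4 : (1 / 4 : ℝ) ∈ majoranaSpectrum := by simp [majoranaSpectrum]
  have mx : x ∈ eigen mul e (1 / 4) := mem_eigen.mpr hx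
  have f := h6 (1 / 4) S4 (1 / 4) S4 x mx x mx
  rw [law_qq, eigenSum_pair] at f
  obtain ⟨p, hp, q, hq, hpq⟩ := Submodule.mem_sup.mp f
  rw [h7] at hp
  obtain ⟨c, rfl⟩ := Submodule.mem_span_singleton.mp hp
  rw [mem_eigen, zero_smul] at hq
  have e1 : B e (mul x x) = c := by
    rw [← hpq, map_add, map_smul, ip_axis0 hV h hq, hn]
    simp
  have e2 : B e (mul x x) = (1 / 4 : ℝ) * B x x := by
    rw [hfrob, hx]
    simp
  have e3 : c = (1 / 4 : ℝ) * B x x := e1.symm.trans e2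
  rw [← hpq, map_add, hq, map_smul, hee, add_zero, e3]

end Fusion

/-- Pair formula: the product of an axis with `s = e f - (e + f) / 32`. -/
theorem pair_y {τ : V ≃ₗ[ℝ] V} {e : V} (h : IsMajoranaPair mul B τ e) (f : V) :
    mul e ((1 / 2 : ℝ) • (τ f + f)) =
      (mul e f - (1 / 32 : ℝ) • (e + f)) + (1 / 32 : ℝ) • e + (1 / 32 : ℝ) • ((1 / 2 : ℝ) • (τ f + f)) := by
  have h1 := mul_refl h f
  have : mul e ((1 / 2 : ℝ) • (τ f + f)) = (1 / 2 : ℝ) • (mul e (τ f) + mul e f) := by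
    simp only [map_smul, map_add]
  rw [this]
  linear_combination (norm := module) (-(1 / 2 : ℝ)) • h1

theorem pair_formula (hV : IsMajoranaAmbient mul B) {τ : V ≃ₗ[ℝ] V} {e : V} (h : IsMajoranaPair mul B τ e)
    (hn : B e e = 1) (f : V) :
    mul e (mul e f - (1 / 32 : ℝ) • (e + f)) =
      (7 / 32 : ℝ) • (mul e f - (1 / 32 : ℝ) • (e + f)) + (7 / 1024 : ℝ) • ((1 / 2 : ℝ) • (τ f + f))
        + ((3 / 4 : ℝ) * B e f - 25 / 1024) • e := by
  set y : V := (1 / 2 : ℝ) • (τ f + f) with hy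
  set s : V := mul e f - (1 / 32 : ℝ) • (e + f) with hs
  have hey : mul e y = s + (1 / 32 : ℝ) • e + (1 / 32 : ℝ) • y := pair_y h f
  have hfix : τ y = y := by
    rw [hy, map_smul, map_add, tau_invol h, add_comm]
  obtain ⟨c, x, w, he, hx, hw⟩ : ∃ (c : ℝ) (x w : V), y = c • e + x + w ∧ mul e x = 0 ∧ mul e w = (1 / 4 : ℝ) • w :=
    decomp h hfix
  have hc : B e y = c := by
    rw [he, map_add, map_add, map_smul, hn, ip_axis0 hV h hx, ip_axis4 hV h hw]
    simp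
  have hc2 : B e y = B e f := by
    have h2 : B e (τ f) = B e f := by
      have := h.2.1 e f
      rwa [fix_axis h] at this
    rw [hy, map_smul, map_add, h2]
    simp only [smul_eq_mul]
    ring
  have hcf : B e f = c := hc2.symm.trans hc
  have h1 : mul e y = c • e + (1 / 4 : ℝ) • w := by
    rw [he]
    simp only [map_add, map_smul, axis_idem h, hx, hw]
    abel
  have h2 : w = (4 : ℝ) • (s + (1 / 32 : ℝ) • e + (1 / 32 : ℝ) • y - c • e) := by
    linear_combination (norm := module) (-4 : ℝ) • (hey.symm.trans h1)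
  have h3 := hw
  rw [h2] at h3
  simp only [map_add, map_sub, map_smul, axis_idem h, hey] at h3
  rw [hcf]
  linear_combination (norm := module) (1 / 4 : ℝ) • h3

end Cfsg.Agent.Lib.Sakuma
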