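/-
Sakuma's theorem: the purely algebraic consequences of the fusion rules (helper18).
-/
import Cfsg.Agent.Lib.Sakuma.Basic

set_option autoImplicit false

namespace Cfsg.Agent.Lib.Sakuma

variable {V : Type*} [AddCommGroup V] [Module ℝ V]
variable {mul : V →ₗ[ℝ] V →ₗ[ℝ] V}

/-- The formulas obtained from the three fusion rules at the axis `e`. -/
theorem fusion_alg (hcomm : ∀ u v : V, mul u v = mul v u) (e S y Y ξ η : V) (l m : ℝ)
    (hee : mul e e = e)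
    (hey : mul e y = S + (1 / 32 : ℝ) • e + (1 / 32 : ℝ) • y)
    (heS : mul e S = (7 / 32 : ℝ) • S + (7 / 1024 : ℝ) • y + ((3 / 4 : ℝ) * l - 25 / 1024) • e)
    (heY : mul e Y = η + (1 / 32 : ℝ) • e + (1 / 32 : ℝ) • Y)
    (hSy : mul S y = (7 / 32 : ℝ) • S + (7 / 2048 : ℝ) • (e + Y) + ((3 / 4 : ℝ) * l - 25 / 1024) • y)
    (hyy : mul y y = (1 / 2 : ℝ) • ξ + (17 / 32 : ℝ) • y)
    (hvv : mul e (mul ((7 / 8 : ℝ) • y - (4 : ℝ) • S + (3 * l - 1 / 8) • e)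
        ((7 / 8 : ℝ) • y - (4 : ℝ) • S + (3 * l - 1 / 8) • e)) = 0)
    (huv : mul e (mul ((7 / 8 : ℝ) • y - (4 : ℝ) • S + (3 * l - 1 / 8) • e)
        ((4 : ℝ) • S + (1 / 8 : ℝ) • y + (1 / 8 - 4 * l) • e)) =
      (1 / 4 : ℝ) • mul ((7 / 8 : ℝ) • y - (4 : ℝ) • S + (3 * l - 1 / 8) • e)
        ((4 : ℝ) • S + (1 / 8 : ℝ) • y + (1 / 8 - 4 * l) • e))
    (huu : mul e (mul ((4 : ℝ) • S + (1 / 8 : ℝ) • y + (1 / 8 - 4 * l) • e)
        ((4 : ℝ) • S + (1 / 8 : ℝ) • y + (1 / 8 - 4 * l) • e)) =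
      ((1 / 4 : ℝ) * (-4 * l ^ 2 + 4 * l + (m - 1) / 16)) • e) :
    mul e ξ = ((32 / 3 : ℝ) * l - 19 / 48) • S + (7 / 3072 : ℝ) • Y
        + (-(32 / 3 : ℝ) * l ^ 2 + 5 / 3 * l - 1 / 24 * m - 127 / 3072) • e + (7 / 96 : ℝ) • η
        + ((1 / 3 : ℝ) * l - 19 / 1536) • y ∧
    mul S S = (7 / 2048 : ℝ) • ξ + (-(5 / 12 : ℝ) * l - 13 / 1536) • S + (-(7 / 1536) : ℝ) • η
        + ((7 / 6 : ℝ) * l ^ 2 - 7 / 384 * l + 7 / 1536 * m - 7 / 98304) • e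
        + ((49 / 384 : ℝ) * l - 245 / 98304) • y + (49 / 98304 : ℝ) • Y := by
  have hyS : mul y S = mul S y := hcomm _ _
  have hye : mul y e = mul e y := hcomm _ _
  have hSe : mul S e = mul e S := hcomm _ _
  have hvvE : mul ((7 / 8 : ℝ) • y - (4 : ℝ) • S + (3 * l - 1 / 8) • e)
        ((7 / 8 : ℝ) • y - (4 : ℝ) • S + (3 * l - 1 / 8) • e)
      = (49 / 64 : ℝ) • mul y y + (16 : ℝ) • mul S S + ((3 * l - 1 / 8) ^ 2) • e - (7 : ℝ) • mul S y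
        + ((7 / 4 : ℝ) * (3 * l - 1 / 8)) • mul e y - ((8 : ℝ) * (3 * l - 1 / 8)) • mul e S := by
    simp only [map_add, map_sub, map_smul, LinearMap.add_apply, LinearMap.sub_apply, LinearMap.smul_apply,
      hee, hyS, hye, hSe]
    module
  have huuE : mul ((4 : ℝ) • S + (1 / 8 : ℝ) • y + (1 / 8 - 4 * l) • e)
        ((4 : ℝ) • S + (1 / 8 : ℝ) • y + (1 / 8 - 4 * l) • e)
      = (16 : ℝ) • mul S S + (1 / 64 : ℝ) • mul y y + ((1 / 8 - 4 * l) ^ 2) • e + (1 : ℝ) • mul S y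
        + ((8 : ℝ) * (1 / 8 - 4 * l)) • mul e S + ((1 / 4 : ℝ) * (1 / 8 - 4 * l)) • mul e y := by
    simp only [map_add, map_sub, map_smul, LinearMap.add_apply, LinearMap.sub_apply, LinearMap.smul_apply,
      hee, hyS, hye, hSe]
    module
  have huvE : mul ((7 / 8 : ℝ) • y - (4 : ℝ) • S + (3 * l - 1 / 8) • e)
        ((4 : ℝ) • S + (1 / 8 : ℝ) • y + (1 / 8 - 4 * l) • e)
      = (-16 : ℝ) • mul S S + (7 / 64 : ℝ) • mul y y + (3 : ℝ) • mul S y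
        + ((3 * l - 1 / 8) * (1 / 8 - 4 * l)) • e
        + ((7 / 8 : ℝ) * (1 / 8 - 4 * l) + (1 / 8 : ℝ) * (3 * l - 1 / 8)) • mul e y
        + ((4 : ℝ) * (3 * l - 1 / 8) - (4 : ℝ) * (1 / 8 - 4 * l)) • mul e S := by
    simp only [map_add, map_sub, map_smul, LinearMap.add_apply, LinearMap.sub_apply, LinearMap.smul_apply,
      hee, hyS, hye, hSe]
    module
  rw [hvvE] at hvv
  rw [huuE] at huu
  rw [huvE] at huv
  simp only [map_add, map_sub, map_smul, hyy, hSy, hey, heS, hee, heY] at hvv huu huv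
  constructor
  · linear_combination (norm := module) (8 / 3 : ℝ) • hvv + (-(8 / 3) : ℝ) • huu
  · linear_combination (norm := module) (1 / 4 : ℝ) • huv + (-(1 / 24) : ℝ) • hvv + (7 / 24 : ℝ) • huu

end Cfsg.Agent.Lib.Sakuma
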