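/-
Sakuma's theorem: chains of Majorana axes (helper18).
-/
import Cfsg.Agent.Lib.Sakuma.Alg

set_option autoImplicit false

namespace Cfsg.Agent.Lib.Sakuma

open Cfsg Cfsg.Axial Cfsg.Agent.Lib.Majorana

variable {V : Type*} [AddCommGroup V] [Module ℝ V]
variable {mul : V →ₗ[ℝ] V →ₗ[ℝ] V} {B : LinearMap.BilinForm ℝ V}

/-- A bi-infinite chain of Majorana axes closed under the reflections. -/
structure Chain (mul : V →ₗ[ℝ] V →ₗ[ℝ] V) (B : LinearMap.BilinForm ℝ V) (a : ℤ → V) (T : ℤ → V ≃ₗ[ℝ] V) : Prop where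
  pair : ∀ i, IsMajoranaPair mul B (T i) (a i)
  refl : ∀ i j, T i (a j) = a (2 * i - j)
  norm : ∀ i, B (a i) (a i) = 1

/-- `s(i,j) = a_i a_j - (a_i + a_j)/32`. -/
noncomputable def sv (mul : V →ₗ[ℝ] V →ₗ[ℝ] V) (a : ℤ → V) (i j : ℤ) : V := mul (a i) (a j) - (1 / 32 : ℝ) • (a i + a j)

/-- `(a_{i-d} + a_{i+d}) / 2`. -/
noncomputable def yv (a : ℤ → V) (i d : ℤ) : V := (1 / 2 : ℝ) • (a (i - d) + a (i + d))

theorem int_const {α : Type*} (f : ℤ → α) (h : ∀ i, f i = f (i + 1)) (i : ℤ) : f i = f 0 := by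
  induction i using Int.induction_on with
  | zero => rfl
  | succ n ih => rw [← h]; exact ih
  | pred n ih =>
    rw [← ih, h (-(n : ℤ) - 1)]
    congr 1
    ring

variable {a : ℤ → V} {T : ℤ → V ≃ₗ[ℝ] V}

namespace Chain

variable (hV : IsMajoranaAmbient mul B) (C : Chain mul B a T)

include C in
theorem ip_refl (k i j : ℤ) : B (a (2 * k - i)) (a (2 * k - j)) = B (a i) (a j) := by
  rw [← C.refl, ← C.refl]
  exact (C.pair k).2.1 _ _

include hV in
theorem ip_comm (x y : V) : B x y = B y x := hV.2.1 x y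

include hV in
theorem sv_comm (i j : ℤ) : sv mul a i j = sv mul a j i := by
  unfold sv
  rw [hV.1 (a i) (a j), add_comm]

include hV C in
theorem sv_step (i d : ℤ) : sv mul a (i - d) i = sv mul a i (i + d) := by
  have h1 := mul_refl (C.pair i) (a (i - d))
  rw [C.refl] at h1
  have e : 2 * i - (i - d) = i + d := by ring
  rw [e] at h1
  unfold sv
  rw [hV.1 (a (i - d)) (a i)]
  linear_combination (norm := module) h1

include hV C in
theorem axis_yv (i d : ℤ) :
    mul (a i) (yv a i d) = sv mul a i (i + d) + (1 / 32 : ℝ) • a i + (1 / 32 : ℝ) • yv a i d := by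
  have h1 := pair_y (C.pair i) (a (i + d))
  rw [C.refl] at h1
  have e : 2 * i - (i + d) = i - d := by ring
  rw [e] at h1
  exact h1

include hV C in
theorem axis_sv (i d : ℤ) :
    mul (a i) (sv mul a i (i + d)) = (7 / 32 : ℝ) • sv mul a i (i + d) + (7 / 1024 : ℝ) • yv a i d
      + ((3 / 4 : ℝ) * B (a i) (a (i + d)) - 25 / 1024) • a i := by
  have h1 := pair_formula hV (C.pair i) (C.norm i) (a (i + d))
  rw [C.refl] at h1
  have e : 2 * i - (i + d) = i - d := by ring
  rw [e] at h1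
  exact h1

include hV C in
theorem sv_one (i : ℤ) : sv mul a i (i + 1) = sv mul a 0 1 := by
  have := int_const (fun i => sv mul a i (i + 1)) (fun i => by
    have h := sv_step hV C (i + 1) 1
    have e : i + 1 - 1 = i := by ring
    rw [e] at h
    exact h) i
  simpa using this

include hV C in
theorem eta_step (i : ℤ) : sv mul a i (i + 2) = sv mul a (i + 2) (i + 2 + 2) := by
  have h := sv_step hV C (i + 2) 2
  have e : i + 2 - 2 = i := by ring
  rw [e] at h
  exact h

include hV C in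
theorem ip_odd (d i : ℤ) : B (a i) (a (i + 2 * d + 1)) = B (a 0) (a (2 * d + 1)) := by
  have := int_const (fun i => B (a i) (a (i + 2 * d + 1))) (fun i => by
    have h := ip_refl C (i + d + 1) i (i + 2 * d + 1)
    have e1 : 2 * (i + d + 1) - i = i + 1 + 2 * d + 1 := by ring
    have e2 : 2 * (i + d + 1) - (i + 2 * d + 1) = i + 1 := by ring
    rw [e1, e2] at h
    rw [← h]
    exact hV.2.1 _ _) i
  simpa using this

include hV C in
theorem ip_one (i : ℤ) : B (a i) (a (i + 1)) = B (a 0) (a 1) := by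
  have := ip_odd hV C 0 i
  simpa using this

include hV C in
theorem axis_S (i : ℤ) :
    mul (a i) (sv mul a 0 1) = (7 / 32 : ℝ) • sv mul a 0 1 + (7 / 1024 : ℝ) • yv a i 1
      + ((3 / 4 : ℝ) * B (a 0) (a 1) - 25 / 1024) • a i := by
  have h := axis_sv hV C i 1
  rw [sv_one hV C, ip_one hV C] at h
  exact h

include hV C in
theorem ip_S (i : ℤ) : B (a i) (sv mul a 0 1) = B (a 0) (a 1) - 1 / 32 - (1 / 32) * B (a 0) (a 1) := by
  rw [← sv_one hV C i]
  unfold sv
  simp only [map_sub, map_smul, map_add, smul_eq_mul]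
  have h1 : B (a i) (mul (a i) (a (i + 1))) = B (a i) (a (i + 1)) := by
    rw [hV.2.2.2.1, axis_idem (C.pair i)]
  rw [h1, C.norm, ip_one hV C]
  ring

include hV C in
theorem ip_S' (i : ℤ) : B (sv mul a 0 1) (a i) = B (a 0) (a 1) - 1 / 32 - (1 / 32) * B (a 0) (a 1) := by
  rw [hV.2.1, ip_S hV C]

include hV C in
theorem ip_one' (i : ℤ) : B (a (i + 1)) (a i) = B (a 0) (a 1) := by
  rw [hV.2.1, ip_one hV C]

include hV C in
theorem ip_two_step (i : ℤ) : B (a (i - 1)) (a (i + 1)) = B (a i) (a (i + 2)) := by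
  have hfrob := hV.2.2.2.1
  have key : B (mul (a i) (sv mul a 0 1)) (a (i + 1)) = B (mul (a (i + 1)) (sv mul a 0 1)) (a i) := by
    rw [hV.1 (a i), hV.1 (a (i + 1)), ← hfrob, ← hfrob, hV.1 (a i)]
  rw [axis_S hV C, axis_S hV C] at key
  simp only [yv, map_add, map_smul, LinearMap.add_apply, LinearMap.smul_apply, smul_eq_mul] at key
  have e1 : i + 1 - 1 = i := by ring
  have e2 : i + 1 + 1 = i + 2 := by ring
  rw [e1, e2] at key
  rw [ip_S' hV C, ip_S' hV C, ip_one hV C, ip_one' hV C, C.norm, C.norm, hV.2.1 (a (i + 2)) (a i)] at key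
  linarith

include hV C in
theorem ip_two (i : ℤ) : B (a i) (a (i + 2)) = B (a 0) (a 2) := by
  have := int_const (fun i => B (a i) (a (i + 2))) (fun i => by
    have h := ip_two_step hV C (i + 1)
    have e1 : i + 1 - 1 = i := by ring
    have e2 : i + 1 + 1 = i + 2 := by ring
    rw [e1, e2] at h
    exact h) i
  simpa using this

include hV C in
/-- The algebra at the axis `a i`. -/
theorem main (i : ℤ) :
    mul (a i) (sv mul a (i - 1) (i + 1)) =
        ((32 / 3 : ℝ) * B (a 0) (a 1) - 19 / 48) • sv mul a 0 1 + (7 / 3072 : ℝ) • yv a i 2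
        + (-(32 / 3 : ℝ) * B (a 0) (a 1) ^ 2 + 5 / 3 * B (a 0) (a 1) - 1 / 24 * B (a 0) (a 2) - 127 / 3072) • a i
        + (7 / 96 : ℝ) • sv mul a i (i + 2)
        + ((1 / 3 : ℝ) * B (a 0) (a 1) - 19 / 1536) • yv a i 1 ∧
    mul (sv mul a 0 1) (sv mul a 0 1) =
        (7 / 2048 : ℝ) • sv mul a (i - 1) (i + 1) + (-(5 / 12 : ℝ) * B (a 0) (a 1) - 13 / 1536) • sv mul a 0 1
        + (-(7 / 1536) : ℝ) • sv mul a i (i + 2)
        + ((7 / 6 : ℝ) * B (a 0) (a 1) ^ 2 - 7 / 384 * B (a 0) (a 1) + 7 / 1536 * B (a 0) (a 2) - 7 / 98304) • a i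
        + ((49 / 384 : ℝ) * B (a 0) (a 1) - 245 / 98304) • yv a i 1 + (49 / 98304 : ℝ) • yv a i 2 := by
  have hcomm := hV.1
  have hfrob := hV.2.2.2.1
  set S := sv mul a 0 1 with hS
  set l := B (a 0) (a 1) with hl
  set m := B (a 0) (a 2) with hm
  have hP := C.pair i
  have hee : mul (a i) (a i) = a i := axis_idem hP
  have hey : mul (a i) (yv a i 1) = S + (1 / 32 : ℝ) • a i + (1 / 32 : ℝ) • yv a i 1 := by
    have h := axis_yv hV C i 1
    rwa [sv_one hV C] at h
  have heS : mul (a i) S = (7 / 32 : ℝ) • S + (7 / 1024 : ℝ) • yv a i 1 + ((3 / 4 : ℝ) * l - 25 / 1024) • a i :=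
    axis_S hV C i
  have heY := axis_yv hV C i 2
  have hSa : ∀ j, B S (a j) = l - 1 / 32 - (1 / 32) * l := fun j => ip_S' hV C j
  have hS1 : ∀ j, mul S (a j) = (7 / 32 : ℝ) • S + (7 / 1024 : ℝ) • yv a j 1 + ((3 / 4 : ℝ) * l - 25 / 1024) • a j :=
    fun j => by rw [hcomm]; exact axis_S hV C j
  have hSy : mul S (yv a i 1) =
      (7 / 32 : ℝ) • S + (7 / 2048 : ℝ) • (a i + yv a i 2) + ((3 / 4 : ℝ) * l - 25 / 1024) • yv a i 1 := by
    have e1 : mul S (yv a i 1) = (1 / 2 : ℝ) • (mul S (a (i - 1)) + mul S (a (i + 1))) := by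
      simp only [yv, map_smul, map_add]
    rw [e1, hS1, hS1]
    simp only [yv]
    have e2 : i - 1 - 1 = i - 2 := by ring
    have e3 : i - 1 + 1 = i := by ring
    have e4 : i + 1 - 1 = i := by ring
    have e5 : i + 1 + 1 = i + 2 := by ring
    rw [e2, e3, e4, e5]
    module
  have hyy : mul (yv a i 1) (yv a i 1) = (1 / 2 : ℝ) • sv mul a (i - 1) (i + 1) + (17 / 32 : ℝ) • yv a i 1 := by
    have h1 : mul (a (i - 1)) (a (i - 1)) = a (i - 1) := axis_idem (C.pair _)
    have h2 : mul (a (i + 1)) (a (i + 1)) = a (i + 1) := axis_idem (C.pair _)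
    have h3 : mul (a (i + 1)) (a (i - 1)) = mul (a (i - 1)) (a (i + 1)) := hcomm _ _
    simp only [yv, sv, map_add, map_smul, LinearMap.add_apply, LinearMap.smul_apply, h1, h2, h3]
    module
  have hu : mul (a i) ((4 : ℝ) • S + (1 / 8 : ℝ) • yv a i 1 + (1 / 8 - 4 * l) • a i)
      = (1 / 4 : ℝ) • ((4 : ℝ) • S + (1 / 8 : ℝ) • yv a i 1 + (1 / 8 - 4 * l) • a i) := by
    simp only [map_add, map_smul, heS, hey, hee]
    module
  have hv : mul (a i) ((7 / 8 : ℝ) • yv a i 1 - (4 : ℝ) • S + (3 * l - 1 / 8) • a i) = 0 := by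
    simp only [map_add, map_sub, map_smul, heS, hey, hee]
    module
  have hkey : B ((4 : ℝ) • S + (1 / 8 : ℝ) • yv a i 1 + (1 / 8 - 4 * l) • a i)
      ((4 : ℝ) • S + (1 / 8 : ℝ) • yv a i 1 + (1 / 8 - 4 * l) • a i) = -4 * l ^ 2 + 4 * l + (m - 1) / 16 := by
    set u := (4 : ℝ) • S + (1 / 8 : ℝ) • yv a i 1 + (1 / 8 - 4 * l) • a i with hu_def
    set v := (7 / 8 : ℝ) • yv a i 1 - (4 : ℝ) • S + (3 * l - 1 / 8) • a i with hv_def
    have huv0 : B u v = 0 := by
      have h1 := hfrob u (a i) v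
      rw [hv, map_zero, hcomm, hu] at h1
      have h2 : (1 / 4 : ℝ) * B u v = 0 := by simpa using h1.symm
      linarith
    have hue : B u (a i) = 0 := by
      rw [hV.2.1]
      exact ip_axis4 hV hP hu
    have hdec : u = yv a i 1 - l • a i - v := by
      rw [hu_def, hv_def]
      module
    have h1 : B u u = B u (yv a i 1) := by
      nth_rewrite 2 [hdec]
      simp only [map_sub, map_smul, hue, huv0, smul_eq_mul]
      ring
    rw [h1, hu_def]
    have hSy' : B S (yv a i 1) = l - 1 / 32 - (1 / 32) * l := by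
      simp only [yv, map_smul, map_add, smul_eq_mul, hSa]
      ring
    have hey' : B (a i) (yv a i 1) = l := by
      have e1 : B (a i) (a (i - 1)) = l := by
        have := ip_one' hV C (i - 1)
        rwa [show i - 1 + 1 = i by ring] at this
      simp only [yv, map_smul, map_add, smul_eq_mul, e1, ip_one hV C i]
      ring
    have hyy' : B (yv a i 1) (yv a i 1) = (1 + m) / 2 := by
      have e1 : B (a (i - 1)) (a (i + 1)) = m := by
        have := ip_two hV C (i - 1)
        rwa [show i - 1 + 2 = i + 1 by ring] at this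
      have e2 : B (a (i + 1)) (a (i - 1)) = m := by rw [hV.2.1, e1]
      simp only [yv, map_smul, map_add, LinearMap.add_apply, LinearMap.smul_apply, smul_eq_mul, e1, e2, C.norm]
      ring
    simp only [map_add, map_smul, LinearMap.add_apply, LinearMap.smul_apply, smul_eq_mul, hSy', hey', hyy']
    ring
  have hvv := fus00 hP hv hv
  have huv := fus04 hP hv hu
  have huu := fus44 hV hP (C.norm i) hu
  rw [hkey] at huu
  exact fusion_alg hcomm (a i) S (yv a i 1) (yv a i 2) (sv mul a (i - 1) (i + 1)) (sv mul a i (i + 2)) l m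
    hee hey heS (by simpa using heY) hSy hyy hvv huv huu

end Chain

end Cfsg.Agent.Lib.Sakuma
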