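/-
Sakuma's theorem: the linear relation among six consecutive axes and the inner products (helper18).
-/
import Cfsg.Agent.Lib.Sakuma.Chain

set_option autoImplicit false

namespace Cfsg.Agent.Lib.Sakuma

open Cfsg Cfsg.Axial Cfsg.Agent.Lib.Majorana

variable {V : Type*} [AddCommGroup V] [Module ℝ V]
variable {mul : V →ₗ[ℝ] V →ₗ[ℝ] V} {B : LinearMap.BilinForm ℝ V}
variable {a : ℤ → V} {T : ℤ → V ≃ₗ[ℝ] V}

namespace Chain

variable (hV : IsMajoranaAmbient mul B) (C : Chain mul B a T)

include hV C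

theorem ip_of_const {d : ℤ} {v : ℝ} (h : ∀ i, B (a i) (a (i + d)) = v) (x y : ℤ) (hxy : y = x + d ∨ x = y + d) :
    B (a x) (a y) = v := by
  rcases hxy with rfl | rfl
  · exact h x
  · rw [hV.2.1]
    exact h y

/-- The relation among six consecutive axes. -/
theorem six (i : ℤ) :
    a (i + 4) - a (i - 2) =
      ((32768 * B (a 0) (a 1) ^ 2 - 512 * B (a 0) (a 1) + 128 * B (a 0) (a 2) - 9) / 7) • (a i - a (i + 2))
        + (256 * B (a 0) (a 1) - 5) • (a (i - 1) - a (i + 3)) := by
  have h1 := (main hV C i).2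
  have h2 := (main hV C (i + 2)).2
  have e1 : i + 2 - 1 = i + 1 := by ring
  have e2 : i + 2 + 1 = i + 3 := by ring
  have e3 : i + 2 - 2 = i := by ring
  have e4 : i + 2 + 2 = i + 4 := by ring
  have e5 : sv mul a (i + 1) (i + 3) = sv mul a (i - 1) (i + 1) := by
    have := eta_step hV C (i - 1)
    rw [show i - 1 + 2 = i + 1 by ring, show i + 1 + 2 = i + 3 by ring] at this
    exact this.symm
  have e6 : sv mul a (i + 2) (i + 4) = sv mul a i (i + 2) := by
    have := eta_step hV C i
    rw [show i + 2 + 2 = i + 4 by ring] at this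
    exact this.symm
  rw [e1, e2, e4, e5, e6] at h2
  have h3 := h1.symm.trans h2
  simp only [yv, e1, e2, e3, e4] at h3
  linear_combination (norm := module) (-(196608 / 49) : ℝ) • h3

variable {l m p : ℝ}

theorem const_one (hl : B (a 0) (a 1) = l) (i : ℤ) : B (a i) (a (i + 1)) = l := by
  rw [ip_one hV C, hl]

theorem const_two (hm : B (a 0) (a 2) = m) (i : ℤ) : B (a i) (a (i + 2)) = m := by
  rw [ip_two hV C, hm]

theorem const_three (hp : B (a 0) (a 3) = p) (i : ℤ) : B (a i) (a (i + 3)) = p := by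
  have := ip_odd hV C 1 i
  rw [show i + 2 * 1 + 1 = i + 3 by ring, show (2 : ℤ) * 1 + 1 = 3 by norm_num] at this
  rw [this, hp]

theorem const_five {v : ℝ} (hp : B (a 0) (a 5) = v) (i : ℤ) : B (a i) (a (i + 5)) = v := by
  have := ip_odd hV C 2 i
  rw [show i + 2 * 2 + 1 = i + 5 by ring, show (2 : ℤ) * 2 + 1 = 5 by norm_num] at this
  rw [this, hp]

theorem const_seven {v : ℝ} (hp : B (a 0) (a 7) = v) (i : ℤ) : B (a i) (a (i + 7)) = v := by
  have := ip_odd hV C 3 i
  rw [show i + 2 * 3 + 1 = i + 7 by ring, show (2 : ℤ) * 3 + 1 = 7 by norm_num] at this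
  rw [this, hp]

/-- The six inner products along the chain obtained from the relation. -/
theorem six_ip (i j : ℤ) :
    B (a (i + 4)) (a j) - B (a (i - 2)) (a j) =
      ((32768 * B (a 0) (a 1) ^ 2 - 512 * B (a 0) (a 1) + 128 * B (a 0) (a 2) - 9) / 7) *
          (B (a i) (a j) - B (a (i + 2)) (a j))
        + (256 * B (a 0) (a 1) - 5) * (B (a (i - 1)) (a j) - B (a (i + 3)) (a j)) := by
  have h := congrArg (fun x => B x (a j)) (six hV C i)
  simpa only [map_add, map_sub, map_smul, LinearMap.add_apply, LinearMap.sub_apply, LinearMap.smul_apply,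
    smul_eq_mul] using h

/-- Inner products with the middle and end of `s(i,i+2)`. -/
theorem sv_end (hm : B (a 0) (a 2) = m) (i : ℤ) :
    B (a i) (sv mul a i (i + 2)) = m - 1 / 32 - (1 / 32) * m := by
  have h1 : B (a i) (mul (a i) (a (i + 2))) = B (a i) (a (i + 2)) := by
    rw [hV.2.2.2.1, axis_idem (C.pair i)]
  simp only [sv, map_sub, map_smul, map_add, smul_eq_mul, h1, C.norm, const_two hV C hm]
  ring

theorem sv_end' (hm : B (a 0) (a 2) = m) (i : ℤ) :
    B (a (i + 2)) (sv mul a i (i + 2)) = m - 1 / 32 - (1 / 32) * m := by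
  have h1 : B (a (i + 2)) (mul (a i) (a (i + 2))) = B (a (i + 2)) (a i) := by
    rw [hV.1, hV.2.2.2.1, axis_idem (C.pair (i + 2))]
  have h2 : B (a (i + 2)) (a i) = m := by
    rw [hV.2.1]
    exact const_two hV C hm i
  simp only [sv, map_sub, map_smul, map_add, smul_eq_mul, h1, C.norm, const_two hV C hm, h2]
  ring

theorem sv_mid (hl : B (a 0) (a 1) = l) (hm : B (a 0) (a 2) = m) (i : ℤ) :
    B (a (i + 1)) (sv mul a i (i + 2)) = (l - 1 / 32 - (1 / 32) * l) + (1 / 32) * (l + m) - (1 / 16) * l := by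
  have h0 : mul (a i) (a (i + 1)) = sv mul a 0 1 + (1 / 32 : ℝ) • (a i + a (i + 1)) := by
    rw [← sv_one hV C i, sv]
    abel
  have h1 : B (a (i + 1)) (mul (a i) (a (i + 2))) = (l - 1 / 32 - (1 / 32) * l) + (1 / 32) * (m + l) := by
    rw [hV.2.2.2.1, hV.1 (a (i + 1)), h0]
    simp only [map_add, map_smul, LinearMap.add_apply, LinearMap.smul_apply, smul_eq_mul]
    have e1 := ip_S' hV C (i + 2)
    rw [hl] at e1
    have e2 : B (a i) (a (i + 2)) = m := const_two hV C hm i
    have e3 : B (a (i + 1)) (a (i + 2)) = l := by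
      have := const_one hV C hl (i + 1)
      rwa [show i + 1 + 1 = i + 2 by ring] at this
    rw [e1, e2, e3]
  have e4 : B (a (i + 1)) (a i) = l := by
    rw [hV.2.1]
    exact const_one hV C hl i
  have e5 : B (a (i + 1)) (a (i + 2)) = l := by
    have := const_one hV C hl (i + 1)
    rwa [show i + 1 + 1 = i + 2 by ring] at this
  simp only [sv, map_sub, map_smul, map_add, smul_eq_mul, h1, e4, e5]
  ring

end Chain

end Cfsg.Agent.Lib.Sakuma
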