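/-
Sakuma's theorem: the inner products along a chain (helper18).
-/
import Cfsg.Agent.Lib.Sakuma.Rel

set_option autoImplicit false

namespace Cfsg.Agent.Lib.Sakuma

open Cfsg Cfsg.Axial Cfsg.Agent.Lib.Majorana

variable {V : Type*} [AddCommGroup V] [Module ℝ V]
variable {mul : V →ₗ[ℝ] V →ₗ[ℝ] V} {B : LinearMap.BilinForm ℝ V}
variable {a : ℤ → V} {T : ℤ → V ≃ₗ[ℝ] V}

/-- Coefficient of `a_i - a_{i+2}` in the relation. -/
noncomputable def rr1 (l m : ℝ) : ℝ := (32768 * l ^ 2 - 512 * l + 128 * m - 9) / 7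

/-- Coefficient of `a_{i-1} - a_{i+3}` in the relation. -/
def rr2 (l : ℝ) : ℝ := 256 * l - 5

/-- The third inner product. -/
noncomputable def ff3 (l m : ℝ) : ℝ :=
  (-32768 * l ^ 3 - 1920 * l * m + 36864 * l ^ 2 - 2169 * l - 33 * m + 33) / 7

namespace Chain

variable (hV : IsMajoranaAmbient mul B) (C : Chain mul B a T)
variable {l m p f4 f5 f6 f7 f8 : ℝ}

include hV C

theorem ip_SS (hl : B (a 0) (a 1) = l) (hm : B (a 0) (a 2) = m) :
    B (sv mul a 0 1) (sv mul a 0 1) =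
      (7 / 32) * (l - 1 / 32 - (1 / 32) * l) + (7 / 1024) * ((m + 1) / 2) + ((3 / 4) * l - 25 / 1024) * l
        - (1 / 16) * (l - 1 / 32 - (1 / 32) * l) := by
  obtain ⟨S, hS⟩ : ∃ S, S = sv mul a 0 1 := ⟨_, rfl⟩
  rw [← hS]
  have hSa : ∀ j, B S (a j) = l - 1 / 32 - (1 / 32) * l := fun j => by
    have := ip_S' hV C j
    rwa [hl, ← hS] at this
  have hax : mul S (a 0) = (7 / 32 : ℝ) • S + (7 / 1024 : ℝ) • yv a 0 1 + ((3 / 4 : ℝ) * l - 25 / 1024) • a 0 := by
    have := axis_S hV C 0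
    rwa [hl, ← hS, hV.1] at this
  have h1 : B S S = B S (mul (a 0) (a 1)) - (1 / 32) * (B S (a 0) + B S (a 1)) := by
    nth_rewrite 2 [hS]
    simp only [sv, map_sub, map_smul, map_add, smul_eq_mul]
  have h2 : B S (mul (a 0) (a 1)) = B (mul S (a 0)) (a 1) := hV.2.2.2.1 _ _ _
  have h3 : B (yv a 0 1) (a 1) = (m + 1) / 2 := by
    have e1 : B (a (0 - 1)) (a 1) = m := by
      have := const_two hV C hm (0 - 1)
      rwa [show (0 : ℤ) - 1 + 2 = 1 by norm_num] at this
    have e2 : B (a (0 + 1)) (a 1) = 1 := by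
      rw [show (0 : ℤ) + 1 = 1 by norm_num, C.norm]
    simp only [yv, map_smul, map_add, LinearMap.smul_apply, LinearMap.add_apply, smul_eq_mul, e1, e2]
    ring
  rw [h1, h2, hax]
  simp only [map_add, map_smul, LinearMap.add_apply, LinearMap.smul_apply, smul_eq_mul, hSa, h3, hl]
  ring

/-- The third inner product as a function of the first two. -/
theorem T3 (hl : B (a 0) (a 1) = l) (hm : B (a 0) (a 2) = m) (hp : B (a 0) (a 3) = p) : p = ff3 l m := by
  have hmain := (main hV C 0).2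
  rw [hl, hm] at hmain
  obtain ⟨S, hS⟩ : ∃ S, S = sv mul a 0 1 := ⟨_, rfl⟩
  rw [← hS] at hmain
  have hSS := ip_SS hV C hl hm
  rw [← hS] at hSS
  have hSa : ∀ j, B S (a j) = l - 1 / 32 - (1 / 32) * l := fun j => by
    have := ip_S' hV C j
    rwa [hl, ← hS] at this
  have hax : mul S (a 1) = (7 / 32 : ℝ) • S + (7 / 1024 : ℝ) • yv a 1 1 + ((3 / 4 : ℝ) * l - 25 / 1024) • a 1 := by
    have := axis_S hV C 1
    rwa [hl, ← hS, hV.1] at this
  have h1 : B (mul S S) (a 1) = B S (mul S (a 1)) := (hV.2.2.2.1 _ _ _).symm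
  have h2 : B S (yv a 1 1) = l - 1 / 32 - (1 / 32) * l := by
    simp only [yv, map_smul, map_add, smul_eq_mul, hSa]
    ring
  have h3 : B (mul S S) (a 1) =
      (7 / 32) * B S S + (7 / 1024) * (l - 1 / 32 - (1 / 32) * l)
        + ((3 / 4) * l - 25 / 1024) * (l - 1 / 32 - (1 / 32) * l) := by
    rw [h1, hax]
    simp only [map_add, map_smul, smul_eq_mul, h2, hSa]
  have h4 : B (sv mul a (0 - 1) (0 + 1)) (a 1) = m - 1 / 32 - (1 / 32) * m := by
    have := sv_end' hV C hm (0 - 1)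
    rw [show (0 : ℤ) - 1 + 2 = 0 + 1 by norm_num, hV.2.1] at this
    rwa [show (0 : ℤ) + 1 = 1 by norm_num] at this ⊢
  have h5 : B (sv mul a 0 (0 + 2)) (a 1) = (l - 1 / 32 - (1 / 32) * l) + (1 / 32) * (l + m) - (1 / 16) * l := by
    have := sv_mid hV C hl hm 0
    rwa [show (0 : ℤ) + 1 = 1 by norm_num, hV.2.1] at this
  have h6 : B (yv a 0 1) (a 1) = (m + 1) / 2 := by
    have e1 : B (a (0 - 1)) (a 1) = m := by
      have := const_two hV C hm (0 - 1)
      rwa [show (0 : ℤ) - 1 + 2 = 1 by norm_num] at this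
    have e2 : B (a (0 + 1)) (a 1) = 1 := by
      rw [show (0 : ℤ) + 1 = 1 by norm_num, C.norm]
    simp only [yv, map_smul, map_add, LinearMap.smul_apply, LinearMap.add_apply, smul_eq_mul, e1, e2]
    ring
  have h7 : B (yv a 0 2) (a 1) = (p + l) / 2 := by
    have e1 : B (a (0 - 2)) (a 1) = p := by
      have := const_three hV C hp (0 - 2)
      rwa [show (0 : ℤ) - 2 + 3 = 1 by norm_num] at this
    have e2 : B (a (0 + 2)) (a 1) = l := by
      have := const_one hV C hl 1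
      rw [show (0 : ℤ) + 2 = 1 + 1 by norm_num, hV.2.1]
      exact this
    simp only [yv, map_smul, map_add, LinearMap.smul_apply, LinearMap.add_apply, smul_eq_mul, e1, e2]
    ring
  have h8 := congrArg (fun x => B x (a 1)) hmain
  simp only [map_add, map_smul, LinearMap.add_apply, LinearMap.smul_apply, smul_eq_mul, h4, h5, h6, h7, hSa, hl] at h8
  rw [h3, hSS] at h8
  unfold ff3
  linarith

/-- The fourth inner product. -/
theorem T4 (hl : B (a 0) (a 1) = l) (hm : B (a 0) (a 2) = m) (hp : B (a 0) (a 3) = p) (i : ℤ) :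
    B (a i) (a (i + 4)) = m + rr1 l m * (1 - m) + rr2 l * (l - p) := by
  have h := six_ip hV C i i
  rw [hl, hm] at h
  have e1 : B (a (i + 4)) (a i) = B (a i) (a (i + 4)) := hV.2.1 _ _
  have e2 : B (a (i - 2)) (a i) = m := ip_of_const hV C (const_two hV C hm) _ _ (Or.inl (by ring))
  have e3 : B (a (i + 2)) (a i) = m := ip_of_const hV C (const_two hV C hm) _ _ (Or.inr (by ring))
  have e4 : B (a (i - 1)) (a i) = l := ip_of_const hV C (const_one hV C hl) _ _ (Or.inl (by ring))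
  have e5 : B (a (i + 3)) (a i) = p := ip_of_const hV C (const_three hV C hp) _ _ (Or.inr (by ring))
  rw [e1, e2, e3, e4, e5, C.norm] at h
  unfold rr1 rr2
  linarith

theorem T5 (hl : B (a 0) (a 1) = l) (hm : B (a 0) (a 2) = m) (hp : B (a 0) (a 3) = p)
    (hf4 : ∀ i, B (a i) (a (i + 4)) = f4) (h5 : B (a 0) (a 5) = f5) :
    f5 = l + rr1 l m * (l - p) + rr2 l * (1 - f4) := by
  have h := six_ip hV C 1 0
  rw [hl, hm] at h
  have e1 : B (a (1 + 4)) (a 0) = f5 := ip_of_const hV C (const_five hV C h5) _ _ (Or.inr (by ring))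
  have e2 : B (a (1 - 2)) (a 0) = l := ip_of_const hV C (const_one hV C hl) _ _ (Or.inl (by ring))
  have e3 : B (a 1) (a 0) = l := ip_of_const hV C (const_one hV C hl) _ _ (Or.inr (by ring))
  have e4 : B (a (1 + 2)) (a 0) = p := ip_of_const hV C (const_three hV C hp) _ _ (Or.inr (by ring))
  have e5 : B (a (1 - 1)) (a 0) = 1 := by rw [show (1 : ℤ) - 1 = 0 by norm_num, C.norm]
  have e6 : B (a (1 + 3)) (a 0) = f4 := ip_of_const hV C hf4 _ _ (Or.inr (by ring))
  rw [e1, e2, e3, e4, e5, e6] at h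
  unfold rr1 rr2
  linarith

theorem T6 (hl : B (a 0) (a 1) = l) (hm : B (a 0) (a 2) = m) (hp : B (a 0) (a 3) = p)
    (hf4 : ∀ i, B (a i) (a (i + 4)) = f4) (h5 : B (a 0) (a 5) = f5) (i : ℤ) :
    B (a i) (a (i + 6)) = 1 + rr1 l m * (m - f4) + rr2 l * (l - f5) := by
  have h := six_ip hV C (i + 2) i
  rw [hl, hm] at h
  have e1 : B (a (i + 2 + 4)) (a i) = B (a i) (a (i + 6)) := by
    rw [hV.2.1, show i + 2 + 4 = i + 6 by ring]
  have e2 : B (a (i + 2 - 2)) (a i) = 1 := by rw [show i + 2 - 2 = i by ring, C.norm]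
  have e3 : B (a (i + 2)) (a i) = m := ip_of_const hV C (const_two hV C hm) _ _ (Or.inr (by ring))
  have e4 : B (a (i + 2 + 2)) (a i) = f4 := ip_of_const hV C hf4 _ _ (Or.inr (by ring))
  have e5 : B (a (i + 2 - 1)) (a i) = l := ip_of_const hV C (const_one hV C hl) _ _ (Or.inr (by ring))
  have e6 : B (a (i + 2 + 3)) (a i) = f5 := ip_of_const hV C (const_five hV C h5) _ _ (Or.inr (by ring))
  rw [e1, e2, e3, e4, e5, e6] at h
  unfold rr1 rr2
  linarith

theorem T7 (hl : B (a 0) (a 1) = l) (hm : B (a 0) (a 2) = m) (hp : B (a 0) (a 3) = p)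
    (hf4 : ∀ i, B (a i) (a (i + 4)) = f4) (h5 : B (a 0) (a 5) = f5) (hf6 : ∀ i, B (a i) (a (i + 6)) = f6)
    (h7 : B (a 0) (a 7) = f7) :
    f7 = l + rr1 l m * (p - f5) + rr2 l * (m - f6) := by
  have h := six_ip hV C 3 0
  rw [hl, hm] at h
  have e1 : B (a (3 + 4)) (a 0) = f7 := ip_of_const hV C (const_seven hV C h7) _ _ (Or.inr (by ring))
  have e2 : B (a (3 - 2)) (a 0) = l := ip_of_const hV C (const_one hV C hl) _ _ (Or.inr (by ring))
  have e3 : B (a 3) (a 0) = p := ip_of_const hV C (const_three hV C hp) _ _ (Or.inr (by ring))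
  have e4 : B (a (3 + 2)) (a 0) = f5 := ip_of_const hV C (const_five hV C h5) _ _ (Or.inr (by ring))
  have e5 : B (a (3 - 1)) (a 0) = m := ip_of_const hV C (const_two hV C hm) _ _ (Or.inr (by ring))
  have e6 : B (a (3 + 3)) (a 0) = f6 := ip_of_const hV C hf6 _ _ (Or.inr (by ring))
  rw [e1, e2, e3, e4, e5, e6] at h
  unfold rr1 rr2
  linarith

theorem T8 (hl : B (a 0) (a 1) = l) (hm : B (a 0) (a 2) = m) (hp : B (a 0) (a 3) = p)
    (hf4 : ∀ i, B (a i) (a (i + 4)) = f4) (h5 : B (a 0) (a 5) = f5) (hf6 : ∀ i, B (a i) (a (i + 6)) = f6)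
    (h7 : B (a 0) (a 7) = f7) (h8 : B (a 0) (a 8) = f8) :
    f8 = m + rr1 l m * (f4 - f6) + rr2 l * (p - f7) := by
  have h := six_ip hV C 4 0
  rw [hl, hm] at h
  have e1 : B (a (4 + 4)) (a 0) = f8 := by
    rw [hV.2.1, show (4 : ℤ) + 4 = 8 by norm_num, h8]
  have e2 : B (a (4 - 2)) (a 0) = m := ip_of_const hV C (const_two hV C hm) _ _ (Or.inr (by ring))
  have e3 : B (a 4) (a 0) = f4 := ip_of_const hV C hf4 _ _ (Or.inr (by ring))
  have e4 : B (a (4 + 2)) (a 0) = f6 := ip_of_const hV C hf6 _ _ (Or.inr (by ring))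
  have e5 : B (a (4 - 1)) (a 0) = p := ip_of_const hV C (const_three hV C hp) _ _ (Or.inr (by ring))
  have e6 : B (a (4 + 3)) (a 0) = f7 := ip_of_const hV C (const_seven hV C h7) _ _ (Or.inr (by ring))
  rw [e1, e2, e3, e4, e5, e6] at h
  unfold rr1 rr2
  linarith

/-- The relation obtained by pairing `s(i-1,i+1)` and `s(i,i+2)`. -/
theorem T_conic (hl : B (a 0) (a 1) = l) (hm : B (a 0) (a 2) = m) (hp : B (a 0) (a 3) = p)
    (hf4 : ∀ i, B (a i) (a (i + 4)) = f4) (i : ℤ) :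
    (960 / 7) * l ^ 3 - (2656 / 21) * l ^ 2 * m + (1345 / 84) * l * m - (1 / 6) * l * p - (387 / 14) * l ^ 2
      + (43 / 168) * m ^ 2 + (7 / 3072) * f4 + (24187 / 21504) * l - (873 / 3584) * m + (19 / 3072) * p
      - 15 / 1024 = 0 := by
  have hfrob := hV.2.2.2.1
  have hmain1 := main hV C i
  have hmain2 := (main hV C (i + 1)).2
  rw [hl, hm] at hmain1 hmain2
  obtain ⟨hax, hss⟩ := hmain1
  obtain ⟨S, hS⟩ : ∃ S, S = sv mul a 0 1 := ⟨_, rfl⟩
  rw [← hS] at hax hss hmain2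
  have hSa : ∀ j, B (a j) S = l - 1 / 32 - (1 / 32) * l := fun j => by
    have := ip_S hV C j
    rwa [hl, ← hS] at this
  have hSa' : ∀ j, B S (a j) = l - 1 / 32 - (1 / 32) * l := fun j => by
    rw [hV.2.1, hSa]
  obtain ⟨ξ, hξ⟩ : ∃ x, x = sv mul a (i - 1) (i + 1) := ⟨_, rfl⟩
  obtain ⟨η, hη⟩ : ∃ x, x = sv mul a i (i + 2) := ⟨_, rfl⟩
  rw [← hξ, ← hη] at hax hss
  have e0 : sv mul a (i + 1 - 1) (i + 1 + 1) = η := by
    rw [hη, show i + 1 - 1 = i by ring, show i + 1 + 1 = i + 2 by ring]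
  have e1 : sv mul a (i + 1) (i + 1 + 2) = ξ := by
    have := eta_step hV C (i - 1)
    rw [show i - 1 + 2 = i + 1 by ring] at this
    rw [hξ, this, show i + 1 + 2 = i + 1 + 2 by ring]
  rw [e0, e1] at hmain2
  have etaL : sv mul a (i - 2) i = η := by
    have := sv_step hV C i 2
    rw [this, hη]
  have etaR : sv mul a (i + 2) (i + 2 + 2) = η := by
    rw [hη]
    exact (eta_step hV C i).symm
  obtain ⟨q2, hq2⟩ : ∃ q : ℝ, q = m - 1 / 32 - (1 / 32) * m := ⟨_, rfl⟩
  obtain ⟨q1, hq1⟩ : ∃ q : ℝ, q = (l - 1 / 32 - (1 / 32) * l) + (1 / 32) * (l + m) - (1 / 16) * l := ⟨_, rfl⟩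
  have a1 : B (a i) η = q2 := by rw [hη, hq2]; exact sv_end hV C hm i
  have a2 : B (a (i + 2)) η = q2 := by rw [hη, hq2]; exact sv_end' hV C hm i
  have a3 : B (a (i + 1)) η = q1 := by rw [hη, hq1]; exact sv_mid hV C hl hm i
  have a4 : B (a (i - 2)) η = q2 := by
    have := sv_end hV C hm (i - 2)
    rwa [show i - 2 + 2 = i by ring, etaL, ← hq2] at this
  have a5 : B (a (i - 1)) η = q1 := by
    have := sv_mid hV C hl hm (i - 2)
    rwa [show i - 2 + 1 = i - 1 by ring, show i - 2 + 2 = i by ring, etaL, ← hq1] at this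
  have a6 : B (a (i + 3)) η = q1 := by
    have := sv_mid hV C hl hm (i + 2)
    rwa [show i + 2 + 1 = i + 3 by ring, etaR, ← hq1] at this
  have a7 : B (a i) ξ = q1 := by
    have := sv_mid hV C hl hm (i - 1)
    rwa [show i - 1 + 1 = i by ring, show i - 1 + 2 = i + 1 by ring, ← hξ, ← hq1] at this
  have a8 : B (a (i + 2)) ξ = q1 := by
    have := sv_mid hV C hl hm (i + 1)
    rwa [show i + 1 + 1 = i + 2 by ring, e1, ← hq1] at this
  have s1 : ∀ x, B (a x) η = B η (a x) := fun x => hV.2.1 _ _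
  -- Equation A
  have hA := congrArg (fun x => B x η) (hss.symm.trans hmain2)
  simp only [yv, map_add, map_smul, LinearMap.add_apply, LinearMap.smul_apply, smul_eq_mul] at hA
  rw [show i + 1 - 1 = i by ring, show i + 1 + 1 = i + 2 by ring, show i + 1 - 2 = i - 1 by ring,
    show i + 1 + 2 = i + 3 by ring, a1, a2, a3, a4, a5, a6] at hA
  -- Equation B
  have hN : B η η = (7 / 32) * q2 + (7 / 1024) * ((f4 + 1) / 2) + ((3 / 4) * m - 25 / 1024) * m - (1 / 16) * q2 := by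
    have b1 : mul (a i) η = (7 / 32 : ℝ) • η + (7 / 1024 : ℝ) • yv a i 2 + ((3 / 4 : ℝ) * m - 25 / 1024) • a i := by
      have := axis_sv hV C i 2
      rwa [const_two hV C hm, ← hη] at this
    have b2 : B (a (i + 2)) (yv a i 2) = (f4 + 1) / 2 := by
      have e2 : B (a (i + 2)) (a (i - 2)) = f4 := ip_of_const hV C hf4 _ _ (Or.inr (by ring))
      simp only [yv, map_smul, map_add, smul_eq_mul, e2, C.norm]
      ring
    have b3 : B (a (i + 2)) (a i) = m := ip_of_const hV C (const_two hV C hm) _ _ (Or.inr (by ring))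
    have b4 : B η (mul (a i) (a (i + 2))) = B (a (i + 2)) (mul (a i) η) := by
      rw [hV.2.1, hfrob (a (i + 2)) (a i) η, hV.1 (a (i + 2)) (a i)]
    have b5 : B η η = B η (mul (a i) (a (i + 2))) - (1 / 32) * (B η (a i) + B η (a (i + 2))) := by
      nth_rewrite 2 [hη]
      simp only [sv, map_sub, map_smul, map_add, smul_eq_mul]
    rw [b5, b4, b1, ← s1, ← s1, a1, a2]
    simp only [map_add, map_smul, smul_eq_mul, b2, b3, a2]
    ring
  -- Equation C
  have hC : B ξ η + (1 / 16) * q1 =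
      ((32 / 3) * l - 19 / 48) * (l - 1 / 32 - (1 / 32) * l) + (7 / 3072) * ((f4 + 1) / 2)
        + (-(32 / 3) * l ^ 2 + 5 / 3 * l - 1 / 24 * m - 127 / 3072) * m + (7 / 96) * q2
        + ((1 / 3) * l - 19 / 1536) * ((p + l) / 2) := by
    have c0 : mul (a i) (a (i + 2)) = η + (1 / 32 : ℝ) • (a i + a (i + 2)) := by
      rw [hη, sv]
      abel
    have c1 : B (a (i + 2)) (mul (a i) ξ) = B ξ η + (1 / 16) * q1 := by
      rw [hfrob, hV.1 (a (i + 2)) (a i), c0]
      simp only [map_add, map_smul, LinearMap.add_apply, LinearMap.smul_apply, smul_eq_mul]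
      have d1 : B (a i) ξ = q1 := a7
      have d2 : B (a (i + 2)) ξ = q1 := a8
      rw [d1, d2, hV.2.1 η ξ]
      ring
    have b2 : B (a (i + 2)) (yv a i 2) = (f4 + 1) / 2 := by
      have e2 : B (a (i + 2)) (a (i - 2)) = f4 := ip_of_const hV C hf4 _ _ (Or.inr (by ring))
      simp only [yv, map_smul, map_add, smul_eq_mul, e2, C.norm]
      ring
    have b3 : B (a (i + 2)) (a i) = m := ip_of_const hV C (const_two hV C hm) _ _ (Or.inr (by ring))
    have b4 : B (a (i + 2)) (yv a i 1) = (p + l) / 2 := by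
      have e2 : B (a (i + 2)) (a (i - 1)) = p := ip_of_const hV C (const_three hV C hp) _ _ (Or.inr (by ring))
      have e3 : B (a (i + 2)) (a (i + 1)) = l := ip_of_const hV C (const_one hV C hl) _ _ (Or.inr (by ring))
      simp only [yv, map_smul, map_add, smul_eq_mul, e2, e3]
      ring
    rw [← c1, hax]
    simp only [map_add, map_smul, smul_eq_mul, b2, b3, b4, a2, hSa]
  subst hq1 hq2
  linear_combination hC - (6144 / 49) * hA - hN

end Chain

end Cfsg.Agent.Lib.Sakuma
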