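/-
Sakuma's theorem: solving the polynomial system (helper18).
-/
import Cfsg.Agent.Lib.Sakuma.Ip

set_option autoImplicit false

namespace Cfsg.Agent.Lib.Sakuma

theorem sakuma_aux_164 (l m p f4 : ℝ) {f5 f6 : ℝ} (h3 : p = ff3 l m)
    (h4 : f4 = m + rr1 l m * (1 - m) + rr2 l * (l - p))
    (hl : l = 1 / 64) (hQ4 : (24576/7)*l^4 + (480/7)*l^2*m + (-27264/7)*l^3 + (417/28)*l*m + (2160/7)*l^2 + (3/14)*m^2 + (-225/28)*l + (-501/1792)*m + (117/1792) = 0) :
    l = 1 ∨ m = 1 ∨ p = 1 ∨ f4 = 1 ∨ f5 = 1 ∨ f6 = 1 := by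
  rw [hl] at hQ4
  have h : (m - 1 / 64) * (m - 1 / 8) = 0 := by linear_combination (14 / 3) * hQ4
  rcases mul_eq_zero.mp h with h | h
  · have hm : m = 1 / 64 := by linarith only [h]
    right; right; left
    rw [h3, hl, hm, ff3]; norm_num
  · have hm : m = 1 / 8 := by linarith only [h]
    have hp : p = 1 / 64 := by
      rw [h3, hl, hm, ff3]; norm_num
    right; right; right; left
    rw [h4, hp, hl, hm, rr1, rr2]; norm_num

theorem sakuma_aux_43 (l m : ℝ) {p f4 f5 f6 : ℝ} (hl : l = 43 / 2048) (hQ4 : (24576/7)*l^4 + (480/7)*l^2*m + (-27264/7)*l^3 + (417/28)*l*m + (2160/7)*l^2 + (3/14)*m^2 + (-225/28)*l + (-501/1792)*m + (117/1792) = 0)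
    (hQ2 : (-1297036692682702848/343)*l^8 + (-75153818781745152/343)*l^6*m + (1605990663994736640/343)*l^7 + (-227598906949632/343)*l^4*m^2 + (12208289920057344/343)*l^5*m + (-37651538742607872/49)*l^6 + (25769803776/49)*l^2*m^3 + (6266894155776/343)*l^3*m^2 + (-888555719098368/343)*l^4*m + (2772418569437184/49)*l^5 + (-3365928960/343)*l*m^3 + (81845551104/343)*l^2*m^2 + (34309297668096/343)*l^3*m + (-797854364860416/343)*l^4 + (-674856960/49)*l*m^2 + (-103629520896/49)*l^2*m + (19577378635776/343)*l^3 + (-737280/343)*m^3 + (8027331840/343)*l*m + (-284842942464/343)*l^2 + (44772480/343)*m^2 + (2260304640/343)*l + (-5219190/49)*m + (-7500870/343) = 0) :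
    l = 1 ∨ m = 1 ∨ p = 1 ∨ f4 = 1 ∨ f5 = 1 ∨ f6 = 1 := by
  exfalso
  rw [hl] at hQ4 hQ2
  have h : (10253390068492728051825 / 525340708068414288003334144 : ℝ) = 0 := by
    linear_combination ((3283947463969952445904/27555216735613618698295)*m^0 + (-26553381201795359178752/16533130041368171218977)*m^1 + (11343008628736/3693214356645)*m^2) * hQ4 + ((-256449023194661472/27555216735613618698295)*m^0 + (-102760448/3693214356645)*m^1) * hQ2
  norm_num at h

set_option maxHeartbeats 4000000 in
/-- The polynomial system leaves only the Norton-Sakuma values. -/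
theorem solve (l m p f4 f5 f6 f7 f8 : ℝ)
    (h3 : p = ff3 l m)
    (h4 : f4 = m + rr1 l m * (1 - m) + rr2 l * (l - p))
    (h5 : f5 = l + rr1 l m * (l - p) + rr2 l * (1 - f4))
    (h6 : f6 = 1 + rr1 l m * (m - f4) + rr2 l * (l - f5))
    (h7 : f7 = l + rr1 l m * (p - f5) + rr2 l * (m - f6))
    (h8 : f8 = m + rr1 l m * (f4 - f6) + rr2 l * (p - f7))
    (q1 : f6 = ff3 m f4)
    (q2 : f8 = f4 + rr1 m f4 * (1 - f4) + rr2 m * (m - f6))
    (q4 : (960 / 7) * l ^ 3 - (2656 / 21) * l ^ 2 * m + (1345 / 84) * l * m - (1 / 6) * l * p - (387 / 14) * l ^ 2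
      + (43 / 168) * m ^ 2 + (7 / 3072) * f4 + (24187 / 21504) * l - (873 / 3584) * m + (19 / 3072) * p
      - 15 / 1024 = 0) :
    l = 1 ∨ m = 1 ∨ p = 1 ∨ f4 = 1 ∨ f5 = 1 ∨ f6 = 1 := by
  have hQ4 : (24576/7)*l^4 + (480/7)*l^2*m + (-27264/7)*l^3 + (417/28)*l*m + (2160/7)*l^2 + (3/14)*m^2 + (-225/28)*l + (-501/1792)*m + (117/1792) = 0 := by
    have := q4
    rw [h4, h3] at this
    simp only [ff3, rr1, rr2] at this
    linear_combination this
  have hQ1 : (-3298534883328/49)*l^6 + (-193273528320/49)*l^4*m + (3917010173952/49)*l^5 + (-100663296/7)*l^2*m^2 + (23945281536/49)*l^3*m + (-469594275840/49)*l^4 + (-1228800/49)*l*m^2 + (-1403584512/49)*l^2*m + (23084728320/49)*l^3 + (32951040/49)*l*m + (-567975936/49)*l^2 + (301440/49)*m^2 + (6984960/49)*l + (-267510/49)*m + (-33930/49) = 0 := by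
    have := q1
    rw [h6, h5, h4, h3] at this
    simp only [ff3, rr1, rr2] at this
    linear_combination -this
  have hQ2 : (-1297036692682702848/343)*l^8 + (-75153818781745152/343)*l^6*m + (1605990663994736640/343)*l^7 + (-227598906949632/343)*l^4*m^2 + (12208289920057344/343)*l^5*m + (-37651538742607872/49)*l^6 + (25769803776/49)*l^2*m^3 + (6266894155776/343)*l^3*m^2 + (-888555719098368/343)*l^4*m + (2772418569437184/49)*l^5 + (-3365928960/343)*l*m^3 + (81845551104/343)*l^2*m^2 + (34309297668096/343)*l^3*m + (-797854364860416/343)*l^4 + (-674856960/49)*l*m^2 + (-103629520896/49)*l^2*m + (19577378635776/343)*l^3 + (-737280/343)*m^3 + (8027331840/343)*l*m + (-284842942464/343)*l^2 + (44772480/343)*m^2 + (2260304640/343)*l + (-5219190/49)*m + (-7500870/343) = 0 := by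
    have := q2
    rw [h8, h7, h6, h5, h4, h3] at this
    simp only [ff3, rr1, rr2] at this
    linear_combination -this
  have hLin : ((32212254720/49)*l^4 + (73311191040/49)*l^3 + (-2333982720/49)*l^2 + (10397760/49)*l + (125775/49)) * m + ((8246337208320/49)*l^6 + (-8870449643520/49)*l^5 + (517818286080/49)*l^4 + (3909058560/49)*l^3 + (-833433600/49)*l^2 + (18663360/49)*l + (-125775/49)) = 0 := by
    linear_combination hQ1 - ((-67108864)*l^2 + (-819200/7)*l + (200960/7)) * hQ4
  have hR : (-6375194751874021038489600/343)*l^11 + (8435926649208299323392000/343)*l^10 + (-2325316742887430003097600/343)*l^9 + (40418573443408488038400/49)*l^8 + (-19117352013238842163200/343)*l^7 + (792902000696308531200/343)*l^6 + (-21075863625164390400/343)*l^5 + (361167831421747200/343)*l^4 + (-3865848454195200/343)*l^3 + (23539336300800/343)*l^2 + (-62303904000/343)*l = 0 := by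
    linear_combination (((32212254720/49)*l^4 + (73311191040/49)*l^3 + (-2333982720/49)*l^2 + (10397760/49)*l + (125775/49)) ^ 2) * hQ4
      - (((3/14)) * (((32212254720/49)*l^4 + (73311191040/49)*l^3 + (-2333982720/49)*l^2 + (10397760/49)*l + (125775/49)) * m - ((8246337208320/49)*l^6 + (-8870449643520/49)*l^5 + (517818286080/49)*l^4 + (3909058560/49)*l^3 + (-833433600/49)*l^2 + (18663360/49)*l + (-125775/49))) + ((480/7)*l^2 + (417/28)*l + (-501/1792)) * ((32212254720/49)*l^4 + (73311191040/49)*l^3 + (-2333982720/49)*l^2 + (10397760/49)*l + (125775/49))) * hLin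
  have hF : l * ((l - 1) * ((l - 1 / 8) * ((l - 1 / 32) * ((l - 1 / 64) * ((l - 1 / 64) * ((l - 3 / 128) * ((l - 5 / 256)
      * ((l - 13 / 256) * ((l - 43 / 2048) * (l - 43 / 2048)))))))))) = 0 := by
    have hK : (-6375194751874021038489600 / 343 : ℝ) ≠ 0 := by norm_num
    apply mul_left_cancel₀ hK
    rw [mul_zero]
    linear_combination hR
  have vp : ∀ {l0 m0 p0 : ℝ}, l = l0 → m = m0 → ff3 l0 m0 = p0 → p = p0 := by
    intro l0 m0 p0 e1 e2 e3
    rw [h3, e1, e2, e3]
  simp only [mul_eq_zero, sub_eq_zero] at hF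
  rcases hF with hl | hl | hl | hl | hl | hl | hl | hl | hl | hl | hl
  · -- l = 0
    right; left
    rw [hl] at hLin
    linarith only [hLin]
  · exact Or.inl hl
  · right; left
    rw [hl] at hLin
    linarith only [hLin]
  · -- l = 1/32, m = 0
    have hm : m = 0 := by
      rw [hl] at hLin
      linarith only [hLin]
    have hp : p = 1 / 32 := by
      rw [h3, hl, hm, ff3]; norm_num
    right; right; right; left
    rw [h4, hp, hl, hm, rr1, rr2]; norm_num
  · exact sakuma_aux_164 l m p f4 h3 h4 hl hQ4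
  · exact sakuma_aux_164 l m p f4 h3 h4 hl hQ4
  · -- l = 3/128
    have hm : m = 3 / 128 := by
      rw [hl] at hLin
      linarith only [hLin]
    have hp : p = 3 / 128 := by
      rw [h3, hl, hm, ff3]; norm_num
    have hf4 : f4 = 3 / 128 := by
      rw [h4, hp, hl, hm, rr1, rr2]; norm_num
    right; right; right; right; left
    rw [h5, hf4, hp, hl, hm, rr1, rr2]; norm_num
  · -- l = 5/256
    have hm : m = 13 / 256 := by
      rw [hl] at hLin
      linarith only [hLin]
    have hp : p = 1 / 8 := by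
      rw [h3, hl, hm, ff3]; norm_num
    have hf4 : f4 = 13 / 256 := by
      rw [h4, hp, hl, hm, rr1, rr2]; norm_num
    have hf5 : f5 = 5 / 256 := by
      rw [h5, hf4, hp, hl, hm, rr1, rr2]; norm_num
    right; right; right; right; right
    rw [h6, hf5, hf4, hl, hm, rr1, rr2]; norm_num
  · -- l = 13/256
    have hm : m = 13 / 256 := by
      rw [hl] at hLin
      linarith only [hLin]
    right; right; left
    rw [h3, hl, hm, ff3]; norm_num
  · exact sakuma_aux_43 l m hl hQ4 hQ2
  · exact sakuma_aux_43 l m hl hQ4 hQ2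

end Cfsg.Agent.Lib.Sakuma
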