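/-
Sakuma's 6-transposition theorem for Majorana involutions (helper18).
-/
import Cfsg.Agent.Lib.Sakuma.Solve

set_option autoImplicit false

namespace Cfsg.Agent.Lib.Sakuma

open Cfsg Cfsg.Axial Cfsg.Agent.Lib.Majorana

variable {V : Type*} [AddCommGroup V] [Module ℝ V]
variable {mul : V →ₗ[ℝ] V →ₗ[ℝ] V} {B : LinearMap.BilinForm ℝ V}

/-- Automorphisms of the algebra with the form. -/
def autS (mul : V →ₗ[ℝ] V →ₗ[ℝ] V) (B : LinearMap.BilinForm ℝ V) : Subgroup (V ≃ₗ[ℝ] V) where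
  carrier := {φ | (∀ u v, φ (mul u v) = mul (φ u) (φ v)) ∧ ∀ u v, B (φ u) (φ v) = B u v}
  mul_mem' := by
    rintro φ ψ ⟨h1, h2⟩ ⟨h3, h4⟩
    refine ⟨fun u v => ?_, fun u v => ?_⟩
    · show φ (ψ (mul u v)) = mul (φ (ψ u)) (φ (ψ v))
      rw [h3, h1]
    · show B (φ (ψ u)) (φ (ψ v)) = B u v
      rw [h2, h4]
  one_mem' := ⟨fun _ _ => rfl, fun _ _ => rfl⟩
  inv_mem' := by
    rintro φ ⟨h1, h2⟩
    have hi : ∀ v, φ (φ⁻¹ v) = v := fun v => φ.apply_symm_apply v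
    refine ⟨fun u v => ?_, fun u v => ?_⟩
    · apply φ.injective
      rw [hi, h1, hi, hi]
    · rw [← h2, hi, hi]

theorem mem_autS_of_pair {τ : V ≃ₗ[ℝ] V} {e : V} (h : IsMajoranaPair mul B τ e) : τ ∈ autS mul B :=
  ⟨h.1, h.2.1⟩

theorem invol_of_pair {τ : V ≃ₗ[ℝ] V} {e : V} (h : IsMajoranaPair mul B τ e) : τ * τ = 1 := by
  ext x
  exact tau_invol h x

section Construct

variable {μ₀ μ₁ : V ≃ₗ[ℝ] V} {a₀ a₁ : V}

/-- The chain of axes. -/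
noncomputable def chainA (μ₀ μ₁ : V ≃ₗ[ℝ] V) (a₀ a₁ : V) (i : ℤ) : V :=
  by classical exact ((μ₁ * μ₀) ^ (i / 2)) (if Even i then a₀ else a₁)

theorem chainA_even (k : ℤ) : chainA μ₀ μ₁ a₀ a₁ (2 * k) = ((μ₁ * μ₀) ^ k) a₀ := by
  unfold chainA
  have e1 : 2 * k / 2 = k := by omega
  have e2 : Even (2 * k) := even_two_mul k
  simp [e1, e2]

theorem chainA_odd (k : ℤ) : chainA μ₀ μ₁ a₀ a₁ (2 * k + 1) = ((μ₁ * μ₀) ^ k) a₁ := by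
  unfold chainA
  have e1 : (2 * k + 1) / 2 = k := by omega
  have e2 : ¬ Even (2 * k + 1) := by
    rw [Int.not_even_iff_odd]
    exact odd_two_mul_add_one k
  simp [e1, e2]

theorem conj_rho (h₀ : μ₀ * μ₀ = 1) (h₁ : μ₁ * μ₁ = 1) (k : ℤ) : μ₀ * (μ₁ * μ₀) ^ k = (μ₁ * μ₀) ^ (-k) * μ₀ := by
  have hi : μ₀⁻¹ = μ₀ := inv_eq_of_mul_eq_one_left h₀
  have hi1 : μ₁⁻¹ = μ₁ := inv_eq_of_mul_eq_one_left h₁
  have e1 : μ₀ * (μ₁ * μ₀) * μ₀⁻¹ = (μ₁ * μ₀)⁻¹ := by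
    rw [hi, _root_.mul_inv_rev, hi, hi1, mul_assoc, mul_assoc, h₀, mul_one]
  have e2 := conj_zpow (a := μ₀) (b := μ₁ * μ₀) (i := k)
  rw [e1] at e2
  have e3 : μ₀ * (μ₁ * μ₀) ^ k = ((μ₁ * μ₀)⁻¹) ^ k * μ₀ := by
    rw [e2, hi, mul_assoc, mul_assoc, h₀, mul_one]
  rw [e3, inv_zpow, zpow_neg]

theorem chain_exists (h₀ : IsMajoranaPair mul B μ₀ a₀) (h₁ : IsMajoranaPair mul B μ₁ a₁)
    (hn₀ : B a₀ a₀ = 1) (hn₁ : B a₁ a₁ = 1) :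
    Chain mul B (chainA μ₀ μ₁ a₀ a₁) (fun i => (μ₁ * μ₀) ^ i * μ₀) := by
  have i₀ := invol_of_pair h₀
  have i₁ := invol_of_pair h₁
  have hi : μ₀⁻¹ = μ₀ := inv_eq_of_mul_eq_one_left i₀
  have hρ : μ₁ * μ₀ ∈ autS mul B := (autS mul B).mul_mem (mem_autS_of_pair h₁) (mem_autS_of_pair h₀)
  have hρk : ∀ k : ℤ, (μ₁ * μ₀) ^ k ∈ autS mul B := fun k => (autS mul B).zpow_mem hρ k
  have hμ₁ : μ₁ = (μ₁ * μ₀) * μ₀ := by rw [mul_assoc, i₀, mul_one]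
  refine ⟨?_, ?_, ?_⟩
  · intro i
    rcases Int.even_or_odd' i with ⟨k, rfl | rfl⟩
    · rw [chainA_even]
      have h := conj_pair h₀ (hρk k).1 (hρk k).2
      have e : (μ₁ * μ₀) ^ k * μ₀ * ((μ₁ * μ₀) ^ k)⁻¹ = (μ₁ * μ₀) ^ (2 * k) * μ₀ := by
        rw [mul_assoc, ← zpow_neg, conj_rho i₀ i₁, ← mul_assoc, ← zpow_add, neg_neg, two_mul]
      rw [e] at h
      exact h
    · rw [chainA_odd]
      have h := conj_pair h₁ (hρk k).1 (hρk k).2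
      have e : (μ₁ * μ₀) ^ k * μ₁ * ((μ₁ * μ₀) ^ k)⁻¹ = (μ₁ * μ₀) ^ (2 * k + 1) * μ₀ := by
        calc (μ₁ * μ₀) ^ k * μ₁ * ((μ₁ * μ₀) ^ k)⁻¹
            = (μ₁ * μ₀) ^ k * ((μ₁ * μ₀) * μ₀) * (μ₁ * μ₀) ^ (-k) := by rw [← hμ₁, zpow_neg]
          _ = (μ₁ * μ₀) ^ k * (μ₁ * μ₀) * (μ₀ * (μ₁ * μ₀) ^ (-k)) := by simp only [mul_assoc]
          _ = (μ₁ * μ₀) ^ k * (μ₁ * μ₀) * ((μ₁ * μ₀) ^ k * μ₀) := by rw [conj_rho i₀ i₁, neg_neg]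
          _ = (μ₁ * μ₀) ^ (2 * k + 1) * μ₀ := by
            rw [← mul_assoc, ← zpow_add_one, ← zpow_add]
            congr 2
            ring
      rw [e] at h
      exact h
  · intro i j
    have fix0 : μ₀ a₀ = a₀ := fix_axis h₀
    have fix1 : μ₁ a₁ = a₁ := fix_axis h₁
    have hc : ∀ (k : ℤ) (x : V), μ₀ (((μ₁ * μ₀) ^ k) x) = ((μ₁ * μ₀) ^ (-k)) (μ₀ x) := fun k x => by
      have := congrArg (fun f : V ≃ₗ[ℝ] V => f x) (conj_rho i₀ i₁ k)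
      exact this
    have hzp : ∀ (m n : ℤ) (x : V), ((μ₁ * μ₀) ^ m) (((μ₁ * μ₀) ^ n) x) = ((μ₁ * μ₀) ^ (m + n)) x := fun m n x => by
      rw [zpow_add]
      rfl
    show ((μ₁ * μ₀) ^ i) (μ₀ (chainA μ₀ μ₁ a₀ a₁ j)) = _
    rcases Int.even_or_odd' j with ⟨k, rfl | rfl⟩
    · rw [chainA_even, hc, fix0, hzp, show 2 * i - 2 * k = 2 * (i + -k) by ring, chainA_even]
    · have hm0 : μ₀ a₁ = ((μ₁ * μ₀) ^ (-1 : ℤ)) a₁ := by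
        have e : (μ₁ * μ₀) ^ (-1 : ℤ) = μ₀ * μ₁ := by
          rw [zpow_neg_one, _root_.mul_inv_rev, hi, inv_eq_of_mul_eq_one_left i₁]
        rw [e]
        show μ₀ a₁ = μ₀ (μ₁ a₁)
        rw [fix1]
      rw [chainA_odd, hc, hm0, hzp, hzp, show 2 * i - (2 * k + 1) = 2 * (i + -k + -1) + 1 by ring, chainA_odd]
  · intro i
    rcases Int.even_or_odd' i with ⟨k, rfl | rfl⟩
    · rw [chainA_even, (hρk k).2, hn₀]
    · rw [chainA_odd, (hρk k).2, hn₁]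

end Construct

namespace Chain

variable {a : ℤ → V} {T : ℤ → V ≃ₗ[ℝ] V}

/-- The sub-chain of even indices. -/
theorem sub (C : Chain mul B a T) : Chain mul B (fun k => a (2 * k)) (fun k => T (2 * k)) := by
  refine ⟨fun i => C.pair _, fun i j => ?_, fun i => C.norm _⟩
  show T (2 * i) (a (2 * j)) = a (2 * (2 * i - j))
  rw [C.refl]
  congr 1
  ring

/-- Some inner product among the first six is `1`. -/
theorem exists_ip_one (hV : IsMajoranaAmbient mul B) (C : Chain mul B a T) :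
    ∃ d : ℤ, 1 ≤ d ∧ d ≤ 6 ∧ B (a 0) (a d) = 1 := by
  obtain ⟨l, hl⟩ : ∃ x, B (a 0) (a 1) = x := ⟨_, rfl⟩
  obtain ⟨m, hm⟩ : ∃ x, B (a 0) (a 2) = x := ⟨_, rfl⟩
  obtain ⟨p, hp⟩ : ∃ x, B (a 0) (a 3) = x := ⟨_, rfl⟩
  obtain ⟨f4, h4⟩ : ∃ x, B (a 0) (a 4) = x := ⟨_, rfl⟩
  obtain ⟨f5, h5⟩ : ∃ x, B (a 0) (a 5) = x := ⟨_, rfl⟩
  obtain ⟨f6, h6⟩ : ∃ x, B (a 0) (a 6) = x := ⟨_, rfl⟩
  obtain ⟨f7, h7⟩ : ∃ x, B (a 0) (a 7) = x := ⟨_, rfl⟩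
  obtain ⟨f8, h8⟩ : ∃ x, B (a 0) (a 8) = x := ⟨_, rfl⟩
  have t3 := T3 hV C hl hm hp
  have t4 := T4 hV C hl hm hp
  have e4 : f4 = m + rr1 l m * (1 - m) + rr2 l * (l - p) := by
    have := t4 0
    rwa [show (0 : ℤ) + 4 = 4 by norm_num, h4] at this
  have c4 : ∀ i, B (a i) (a (i + 4)) = f4 := fun i => by rw [t4, e4]
  have t5 := T5 hV C hl hm hp c4 h5
  have t6 := T6 hV C hl hm hp c4 h5
  have e6 : f6 = 1 + rr1 l m * (m - f4) + rr2 l * (l - f5) := by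
    have := t6 0
    rwa [show (0 : ℤ) + 6 = 6 by norm_num, h6] at this
  have c6 : ∀ i, B (a i) (a (i + 6)) = f6 := fun i => by rw [t6, e6]
  have t7 := T7 hV C hl hm hp c4 h5 c6 h7
  have t8 := T8 hV C hl hm hp c4 h5 c6 h7 h8
  have hsl : B (a (2 * 0)) (a (2 * 1)) = m := by simpa using hm
  have hsm : B (a (2 * 0)) (a (2 * 2)) = f4 := by simpa using h4
  have hsp : B (a (2 * 0)) (a (2 * 3)) = f6 := by simpa using h6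
  have q1 : f6 = ff3 m f4 := T3 hV C.sub hsl hsm hsp
  have q2 : f8 = f4 + rr1 m f4 * (1 - f4) + rr2 m * (m - f6) := by
    have := T4 hV C.sub hsl hsm hsp 0
    rwa [show (2 : ℤ) * (0 + 4) = 8 by norm_num, show (2 : ℤ) * 0 = 0 by norm_num, h8] at this
  have q4 := T_conic hV C hl hm hp c4 0
  rcases solve l m p f4 f5 f6 f7 f8 t3 e4 t5 e6 t7 t8 q1 q2 q4 with h | h | h | h | h | h
  · exact ⟨1, by norm_num, by norm_num, by rw [hl, h]⟩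
  · exact ⟨2, by norm_num, by norm_num, by rw [hm, h]⟩
  · exact ⟨3, by norm_num, by norm_num, by rw [hp, h]⟩
  · exact ⟨4, by norm_num, by norm_num, by rw [h4, h]⟩
  · exact ⟨5, by norm_num, by norm_num, by rw [h5, h]⟩
  · exact ⟨6, by norm_num, by norm_num, by rw [h6, h]⟩

end Chain

/-- Sakuma's theorem. -/
theorem main_S5544 (hV : IsMajoranaAmbient mul B) (μ₀ μ₁ : V ≃ₗ[ℝ] V) (a₀ a₁ : V)
    (h₀ : IsMajoranaPair mul B μ₀ a₀) (h₁ : IsMajoranaPair mul B μ₁ a₁)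
    (hn₀ : B a₀ a₀ = 1) (hn₁ : B a₁ a₁ = 1) : ∃ n : ℕ, 1 ≤ n ∧ n ≤ 6 ∧ (μ₀ * μ₁) ^ n = 1 := by
  have C := chain_exists h₀ h₁ hn₀ hn₁
  obtain ⟨d, hd1, hd6, hd⟩ := Chain.exists_ip_one hV C
  set a := chainA μ₀ μ₁ a₀ a₁ with ha
  have hne : a 0 = a d := by
    by_contra hne
    have h1 : a 0 - a d ≠ 0 := sub_ne_zero.mpr hne
    have h2 := hV.2.2.1 _ h1
    have h3 : B (a 0 - a d) (a 0 - a d) = 0 := by
      simp only [map_sub, LinearMap.sub_apply, C.norm, hd, hV.2.1 (a d) (a 0)]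
      ring
    linarith
  have hT : (μ₁ * μ₀) ^ d * μ₀ = (μ₁ * μ₀) ^ (0 : ℤ) * μ₀ := by
    have p1 := C.pair d
    have p2 := C.pair 0
    rw [← hne] at p1
    exact tau_unique p1 p2
  have hρ : (μ₁ * μ₀) ^ d = 1 := by
    have := mul_right_cancel hT
    rwa [zpow_zero] at this
  obtain ⟨n, rfl⟩ : ∃ n : ℕ, d = n := ⟨d.toNat, by omega⟩
  refine ⟨n, by omega, by omega, ?_⟩
  have i₀ := invol_of_pair h₀
  have i₁ := invol_of_pair h₁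
  have e : μ₀ * μ₁ = (μ₁ * μ₀)⁻¹ := by
    rw [_root_.mul_inv_rev, inv_eq_of_mul_eq_one_left i₀, inv_eq_of_mul_eq_one_left i₁]
  rw [e, inv_pow]
  rw [zpow_natCast] at hρ
  rw [hρ, inv_one]

end Cfsg.Agent.Lib.Sakuma
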